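import Cfsg.Agent.H510.TwoTool
import Cfsg.Agent.H221.ClassCount

/-!
# Class constraints for 2-transitive actions of almost simple groups (helper510, HUB H1 part P11)

* `cls` : `n (n-1) ∣ d (n - f)`, `n ∣ d f` for a class of `T` with `d` elements and `f` fixed points which is invariant
  in `G`;
* `four_dvd` : `4 ∣ n - f` for an involution of `T` (the elements of `T` are even permutations);
* `fix_eq` : conjugate elements of `T` have the same number of fixed points.
-/

set_option autoImplicit false

namespace Cfsg.Agent.H510.TwoClass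

open MulAction Subgroup Cfsg.Agent.H384.TwoTrans Cfsg.Agent.H221.ClassCount

theorem card_conj_mul {X : Type*} [Group X] [Finite X] (t : X) :
    Nat.card (centralizer ({t} : Set X)) * (conjugatesOf t).ncard = Nat.card X := by
  classical
  have h1 : conjugatesOf t = orbit (ConjAct X) t := by
    ext y
    rw [ConjAct.mem_orbit_conjAct, isConj_comm]
    rfl
  have h2 : Nat.card (orbit (ConjAct X) t) * Nat.card (stabilizer (ConjAct X) t) = Nat.card (ConjAct X) := by
    rw [Nat.card_congr (orbitEquivQuotientStabilizer (ConjAct X) t), ← Subgroup.index_eq_card]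
    exact Subgroup.index_mul_card _
  rw [h1, ← Nat.card_coe_set_eq, Subgroup.nat_card_centralizer_nat_card_stabilizer, mul_comm, h2]
  rfl

theorem card_cent_aut {X : Type*} [Group X] (f : X ≃* X) (t : X) :
    Nat.card (centralizer ({f t} : Set X)) = Nat.card (centralizer ({t} : Set X)) := by
  have h : centralizer ({f t} : Set X) = (centralizer ({t} : Set X)).map f.toMonoidHom := by
    ext y
    simp only [mem_map, mem_centralizer_singleton_iff, MulEquiv.coe_toMonoidHom]
    constructor
    · intro hy
      refine ⟨f.symm y, ?_, by simp⟩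
      apply f.injective
      simp [hy]
    · rintro ⟨x, hx, rfl⟩
      rw [← map_mul, hx, map_mul]
  rw [h]
  exact Nat.card_congr (equivMapOfInjective _ _ f.injective).symm.toEquiv

universe u v

variable {G : Type u} {Ω : Type v} [Group G] [MulAction G Ω] {T : Subgroup G}

theorem fix_eq (A : AS G Ω T) {x y : ↥T} (h : IsConj x y) : (fixedBy Ω y).ncard = (fixedBy Ω x).ncard := by
  have := A.finΩ
  exact fix_conj x y h

/-- **The class constraint.** -/
theorem cls (A : AS G Ω T) {t : ↥T} {c d : ℕ} (hc : Nat.card (centralizer ({t} : Set ↥T)) = c)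
    (hd : c * d = Nat.card T)
    (hu : ∀ y : ↥T, orderOf y = orderOf t → Nat.card (centralizer ({y} : Set ↥T)) = c → IsConj t y) :
    Nat.card Ω * (Nat.card Ω - 1) ∣ d * (Nat.card Ω - (fixedBy Ω t).ncard) ∧
      Nat.card Ω ∣ d * (fixedBy Ω t).ncard ∧ (fixedBy Ω t).ncard ≤ Nat.card Ω := by
  have := A.finG
  have := A.finΩ
  have := A.finT
  have hn := A.five_le
  have hne : Nonempty Ω := (Nat.card_pos_iff.1 (by omega)).1
  have hle : (fixedBy Ω t).ncard ≤ Nat.card Ω := by
    rw [← Set.ncard_univ]
    exact Set.ncard_le_ncard (Set.subset_univ _) (Set.toFinite _)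
  set C : Set G := Subtype.val '' (conjugatesOf t : Set ↥T) with hC
  have hinv : Cfsg.Agent.H221.ClassCount.Inv C := by
    rintro g _ ⟨y, hy, rfl⟩
    have hy' : IsConj t y := hy
    have := A.normal
    let f : ↥T ≃* ↥T := MulAut.conjNormal g
    have hfy : ((f y : ↥T) : G) = g * y * g⁻¹ := MulAut.conjNormal_apply g y
    refine ⟨f y, ?_, hfy⟩
    refine hu (f y) ?_ ?_
    · rw [MulEquiv.orderOf_eq]
      obtain ⟨k, rfl⟩ := isConj_iff.1 hy'
      exact (orderOf_injective (MulAut.conj k).toMonoidHom (MulAut.conj k).injective t)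
    · rw [card_cent_aut, TwoCore.card_centralizer_conj hy', hc]
  have hcd : C.ncard = d := by
    rw [hC, Set.ncard_image_of_injective _ Subtype.val_injective]
    have h := card_conj_mul t
    rw [hc, ← hd] at h
    have hc0 : 0 < c := by rw [← hc]; exact Nat.card_pos
    exact Nat.eq_of_mul_eq_mul_left hc0 h
  have hf : ∀ y ∈ C, (fixedBy Ω y).ncard = (fixedBy Ω t).ncard := by
    rintro _ ⟨y, hy, rfl⟩
    exact fix_eq A hy
  have h1 := mul_dvd_fix A.two hinv hf
  have htr := isPretransitive_of_two A.two
  obtain ⟨a⟩ := hne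
  have h2 := card_mul_ncard_fix (Ω := Ω) hinv a hf
  rw [hcd] at h1 h2
  refine ⟨?_, ⟨_, h2.symm⟩, hle⟩
  rw [← Int.natCast_dvd_natCast]
  push_cast [Nat.cast_sub hle, Nat.cast_sub (show 1 ≤ Nat.card Ω by omega)]
  exact h1

/-- the elements of `T` are even permutations -/
theorem sign_eq (A : AS G Ω T) [Fintype Ω] [DecidableEq Ω] (t : ↥T) :
    Equiv.Perm.sign (MulAction.toPermHom T Ω t) = 1 := by
  let f : ↥T →* ℤˣ := Equiv.Perm.sign.comp (MulAction.toPermHom T Ω)
  have hs := A.simple
  rcases hs.eq_bot_or_eq_top_of_normal f.ker inferInstance with h | h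
  · exfalso
    apply A.nonab
    have hinj := (MonoidHom.ker_eq_bot_iff f).1 h
    exact ⟨⟨fun a b => hinj (by rw [map_mul, map_mul, mul_comm])⟩⟩
  · have : t ∈ f.ker := by rw [h]; trivial
    exact this

theorem four_dvd (A : AS G Ω T) {t : ↥T} (ht : orderOf t = 2) :
    4 ∣ Nat.card Ω - (fixedBy Ω t).ncard := by
  classical
  have := A.finΩ
  have := Fintype.ofFinite Ω
  have := A.faithfulT
  set σ := MulAction.toPermHom T Ω t with hσ
  have hinj : Function.Injective (MulAction.toPermHom T Ω) := MulAction.toPerm_injective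
  have ho : orderOf σ = 2 := by rw [hσ, orderOf_injective _ hinj, ht]
  obtain ⟨k, hk⟩ := Equiv.Perm.cycleType_prime_order (σ := σ) (by rw [ho]; exact Nat.prime_two)
  have hsg := sign_eq A t
  rw [← hσ, Equiv.Perm.sign_of_cycleType, hk, ho] at hsg
  have hsum : σ.support.card = 2 * (k + 1) := by
    rw [← Equiv.Perm.sum_cycleType, hk, ho, Multiset.sum_replicate, smul_eq_mul, mul_comm]
  simp only [Multiset.sum_replicate, Multiset.card_replicate, smul_eq_mul] at hsg
  have hev : Even (k + 1) := by
    have h1 : (-1 : ℤˣ) ^ ((k + 1) * 2 + (k + 1)) = (-1) ^ (k + 1) := by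
      rw [pow_add, mul_comm (k + 1) 2, pow_mul]
      simp
    rw [h1] at hsg
    by_contra hodd
    rw [Nat.not_even_iff_odd] at hodd
    rw [hodd.neg_one_pow] at hsg
    exact absurd hsg (by decide)
  have hfix : (fixedBy Ω t).ncard = Nat.card Ω - σ.support.card := by
    have h1 : fixedBy Ω t = ((σ.supportᶜ : Finset Ω) : Set Ω) := by
      ext a
      simp only [mem_fixedBy, Finset.coe_compl, Set.mem_compl_iff, Finset.mem_coe, Equiv.Perm.mem_support, not_not]
      rfl
    rw [h1, Set.ncard_coe_finset, Finset.card_compl, Nat.card_eq_fintype_card]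
  have hle : σ.support.card ≤ Nat.card Ω := by
    rw [Nat.card_eq_fintype_card]
    exact Finset.card_le_univ _
  rw [hfix, hsum] at *
  obtain ⟨r, hr⟩ := hev
  refine ⟨r, ?_⟩
  omega

end Cfsg.Agent.H510.TwoClass
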